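import Cfsg.Agent.H6.Sp44.Tab0

set_option autoImplicit false
set_option maxRecDepth 100000
set_option Elab.async false

namespace Cfsg.H6.Sp44

theorem p0 : allR (ptU img) 0 136 = true := by decide +kernel

theorem q0_0 : allR (ivl img Ws 1 61) 1 60 = true := by decide +kernel

theorem q1_0 : allR (ivl img Ws 61 136) 61 75 = true := by decide +kernel

end Cfsg.H6.Sp44
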