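import Cfsg.Agent.H6.Sp44.Rep
import Cfsg.Agent.H6.Sp44.C1.Main
import Cfsg.Agent.H6.Sp44.C2.Main
import Cfsg.Agent.H6.Sp44.C3.Main

set_option autoImplicit false
set_option maxRecDepth 100000
set_option Elab.async false

namespace Cfsg.H6.Sp44

theorem cover : Cover (gen ev Ws) ⊤ 136 := hX ▸ C1.cover hev hR

theorem ub : UB (⊤ : Subgroup Grp) 979200 :=
  ((UB.bot.cover (C3.cover hev hR)).cover (C2.cover hev hR)).cover cover

def I : List Ivl := [(1, 61, [5]), (61, 136, [5,4,3,2,1,2,3,4,5])]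

theorem act : ∃ φ : Grp →* Equiv.Perm ℕ, IsAct φ ev img 136 6 := by
  obtain ⟨ψ, hψ⟩ := lift rep.1 rep.2.1
  exact ⟨_, rep.2.2.comp ψ hψ⟩

/-- The permutation representation. -/
noncomputable def φ : Grp →* Equiv.Perm ℕ := act.choose

theorem hφ : IsAct φ ev img 136 6 := act.choose_spec

theorem prim : Prim φ ev (gen ev Ws) 136 I :=
  prim_sound hφ cover (List.forall_mem_cons.mpr ⟨iv0 hφ, (List.forall_mem_cons.mpr ⟨iv1 hφ, (by simp)⟩)⟩) (by decide +kernel)

theorem coatom : IsCoatom (gen ev Ws) :=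
  prim.isCoatom hφ hX (C := [[], [0], [0,1,0,1,2,3,4]]) (by decide +kernel)

def lW0 : List (List ℕ) := [[nat_lit 1], [nat_lit 2], [nat_lit 3]]

theorem l0 : lvlChk img 136 6 [1,0] (2, lW0, unp 11 (nat_lit 0xf0200000d0100000b000000090100000900000007020000060000000501000004000000030100000202)) = true := by
  decide +kernel

def lW1 : List (List ℕ) := [[nat_lit 1], [nat_lit 2]]

theorem l1 : lvlChk img 136 6 [2,1,0] (3, lW1, unp 4 (nat_lit 0x600000005010000040000000301)) = true := by
  decide +kernel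

def lW2 : List (List ℕ) := [[nat_lit 1]]

theorem l2 : lvlChk img 136 6 [3,2,1,0] (4, lW2, unp 1 (nat_lit 0x400)) = true := by
  decide +kernel

theorem finite : Finite Grp := ub.top.1

def bs : List ℕ := [4,3,2,1,0]

theorem lb : LBn φ ⊤ 136 bs 979200 := by
  have := finite
  exact LBn.cast ((((prim.lb2 (e := I.head (by decide)) (List.head_mem _)).stepT hφ l0).stepT hφ l1).stepT hφ l2) (by decide +kernel)

theorem main : Nat.card Grp = 979200 ∧ fixS φ bs = ⊥ ∧ Oracle ev img 6 bs := by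
  have := finite
  exact lb.oracle hφ ub.top.2

theorem normal (N : Subgroup Grp) [N.Normal] (hN : N ≠ ⊥) :
    ∀ t ∈ ([[1], [2], [3], [4], [5]] : List (List ℕ)), evL ev t ∈ N := by
  have := finite
  exact prim.normal_contains hev coatom lb.2 main.2.1 main.2.2 (p := 17) (k := 1) (j := 1) (by norm_num)
    main.1 (x := [3,2,1,4,5]) (St := [([3,2,1,4,5], [], [1], 5, 2), ([1], [], [2], 5, 2), ([2], [], [3], 3, 2), ([3], [], [4], 3, 2), ([4], [], [5], 3, 2)]) (by decide +kernel) N hN

theorem simple : IsSimpleGroup Grp := by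
  have := prim.nontrivial
  exact isSimple_of_contains hX normal

end Cfsg.H6.Sp44
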