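import Cfsg.Agent.H6.More2
import Cfsg.Agent.H6.F4
import Cfsg.Agent.H6.Sp44.Main
import Cfsg.Agent.H6.He.Main
import Cfsg.Agent.H2.Symp

set_option autoImplicit false
set_option maxRecDepth 100000
set_option Elab.async false

namespace Cfsg.H6.Sp44

open Matrix

abbrev I4 : Type := Fin 2 ⊕ Fin 2

abbrev Sp : Type := Matrix.symplecticGroup (Fin 2) F4

theorem card_Sp : Nat.card Sp = 979200 := by
  rw [H2.card_symplecticGroup, F4.card]
  decide +kernel

def pos : I4 → ℕ := Sum.elim (fun i => i) (fun i => i + 2)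

def rows : List (List ℕ) := [[], [nat_lit 1, nat_lit 2, nat_lit 68, nat_lit 136, nat_lit 16, nat_lit 32, nat_lit 64, nat_lit 128], [nat_lit 1, nat_lit 2, nat_lit 4, nat_lit 8, nat_lit 16, nat_lit 32, nat_lit 76, nat_lit 132], [nat_lit 209, nat_lit 98, nat_lit 180, nat_lit 216, nat_lit 16, nat_lit 32, nat_lit 64, nat_lit 128], [nat_lit 1, nat_lit 2, nat_lit 4, nat_lit 8, nat_lit 17, nat_lit 34, nat_lit 64, nat_lit 128], [nat_lit 17, nat_lit 34, nat_lit 4, nat_lit 8, nat_lit 16, nat_lit 32, nat_lit 64, nat_lit 128]]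

noncomputable def rw (x : ℕ) : ℕ → ℕ := nthN (nthW rows x)

theorem hA : ∀ x < 6, 1 ≤ x → matEq (mat4 pos (rw x) * Matrix.J (Fin 2) F4 * (mat4 pos (rw x))ᵀ)
    (Matrix.J (Fin 2) F4) = true := by decide +kernel

def mkSp (A : Matrix I4 I4 F4) (h : A * Matrix.J (Fin 2) F4 * Aᵀ = Matrix.J (Fin 2) F4) : Sp := ⟨A, h⟩

noncomputable def evM (x : ℕ) : Sp :=
  if h : 1 ≤ x ∧ x < 6 then mkSp _ (eq_of_matEq (hA x h.2 h.1)) else 1

def mu : Sp →* Matrix I4 I4 F4 where
  toFun := fun g => g.1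
  map_one' := rfl
  map_mul' := fun _ _ => rfl

theorem mu_inj : Function.Injective mu := fun (a b : Sp) (h : a.1 = b.1) => Subtype.ext h

noncomputable def imgM (x p : ℕ) : ℕ := xv (rw x) p (2 * 4)

theorem hμ : ∀ x, 1 ≤ x → x < 6 → mu (evM x) = mat4 pos (rw x) := by
  intro x h1 h2
  unfold evM
  rw [dif_pos ⟨h1, h2⟩]
  rfl

theorem hrow : ∀ x < 6, 1 ≤ x → ∀ k < 2 * 4,
    dec4 pos (rw x k) = Matrix.vecMul (dec4 pos (2 ^ k)) (mat4 pos (rw x)) := by decide +kernel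

theorem hact : MAct (fun x => mat4 pos (rw x)) (dec4 pos) imgM 6 :=
  mact4 (by decide +kernel) fun x h1 h2 => hrow x h2 h1

theorem oraM : Oracle evM imgM 6 [1, 4, 16, 64] :=
  hact.oracle mu_inj hμ (e := fun i => 4 ^ pos i) (by decide +kernel) (by decide +kernel)

theorem iso_sp : Nonempty (Grp ≃* Sp) := by
  have := simple
  obtain ⟨ψ, hψ⟩ := lift
    (oraM.good (dif_neg (by omega)) (fun l hl => dif_neg (by omega)) (by decide +kernel))
    (oraM.rels (by decide +kernel))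
  have h1 : ψ (ev 1) ≠ 1 := by
    rw [hψ, ← evL_singleton evM 1]
    exact hact.ne hμ (w := []) (p := 4) (i := Sum.inr 1) (by decide +kernel) (by decide +kernel)
      (by decide +kernel)
  exact equiv_of_injective ψ (injective_of_simple ψ h1) (by rw [main.1, card_Sp])

def sg : List (List ℕ) := [[], [3,4,7,2,3,4,6,5,4,3,2,1,2,3,4,5,6,4,3,2,7,4,3], [2,3,4,3,4,6,4,3,4,3,2,1,2,3,4,3,4,6,4,3,4,3,2], [6,4,3,4,7,2,3,4,3,2,1,2,3,4,3,2,7,4,3,4,6], [1], [7,2,3,4,3,2,1,2,3,4,3,2,7]]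

theorem iso_sub : Nonempty (Grp ≃* gen He.ev (X.map (subst sg))) := by
  have := simple
  obtain ⟨ψ, hψ⟩ := lift (He.main.2.2.good_evS (σ := sg) (by decide +kernel))
    (He.main.2.2.rels_evS (by decide +kernel))
  have h := equiv_gen_of_simple ψ hψ hX (w := [1]) (by
    rw [evL_subst]
    exact He.hφ.ne_one (p := 1) (by decide +kernel))
  rwa [gen_evS] at h

theorem sub_le : gen He.ev (X.map (subst sg)) ≤ gen He.ev He.Ws := by
  rw [He.prim.stab]
  refine gen_le fun w hw => He.hφ.mem_fixS (by simp) ?_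
  revert w
  decide +kernel

theorem result : ∃ (N : Subgroup (gen He.ev He.Ws)) (K : Type) (_ : Field K) (_ : Fintype K),
    N.Normal ∧ N.index = 2 ∧ Fintype.card K = 4 ∧
      Nonempty (N ≃* Matrix.symplecticGroup (Fin 2) K) := by
  have := He.finite
  obtain ⟨e⟩ := iso_sub
  obtain ⟨e'⟩ := iso_sp
  obtain ⟨h1, h2, ⟨e''⟩⟩ := index_two_subgroupOf sub_le (a := 979200)
    (by rw [← Nat.card_congr e.toEquiv, main.1])
    (card_of_index He.prim.index (by norm_num) He.main.1)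
  exact ⟨_, F4, inferInstance, inferInstance, h1, h2, F4.card, ⟨(e''.trans e.symm).trans e'⟩⟩

end Cfsg.H6.Sp44
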